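import Cfsg.Agent.H76.SteinerSearch

/-! Uniqueness of the projective plane of order 4, with an ordered hyperoval. -/

set_option autoImplicit false
set_option maxRecDepth 100000

namespace H76

open Finset Cfsg

def stdH4 : List ℕ := [0x10840000021,0x84200000000401,0x1000200042100000,
0x421000000000008001,0x8000004000802008000,0x100020000010002000400,
0x2000400080000002000020,0x2108000000000000100001,0x40000000080010000108000,
0x40008001000000000000420,0x40100400004000040000000,0x42000020000200800000000,
0x800000400000000800100400,0x800008020080000040000000,0x800100000000200000008020,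
0x802000001004010000000000,0x10000000020004000000100020,0x10000008400000210000000000,
0x10000100001080000800000000,0x10002000000000000040008400,0x10840000000000000002000001]

def kH4 : List ℕ := [0x800000400000000800100400,0x10002000000000000040008400,0x2000400080000002000020,
0x10000000020004000000100020,0x800100000000200000008020,0x40008001000000000000420,
0x10840000000000000002000001,0x2108000000000000100001,0x421000000000008001,
0x84200000000401,0x10840000021]

noncomputable def certBH4 : SCert := (.branch 0x2100000 []
(chain [0x8000000000002000000,0x40000000000000000100000,0x40100000000000000000000,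
0x42000000000000000000000,0x800000020000000000000000,0x802000000000000000000000,
0x10000008000000000000000000,0x10000100000000000000000000] (.ref 0x149ca307b9ac5a928398a418820 .nil)) .nil)

def sBH4 : ℕ := 0x100000000000000000400

noncomputable def certCH4 : SCert := (.branch 0x401 [(9,10),(10,11),(11,12),(12,13),(13,14),(14,15),(15,16),(16,17),(17,18),(18,19),(19,20)]
(.branch 0x8001 [(12,13),(13,14),(14,15),(15,16),(16,17),(17,18),(18,19),(19,20)]
(.branch 0x100001 [(15,16),(16,17),(17,18),(18,19),(19,20)]
(.branch 0x2000001 [(18,19),(19,20)]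
(.branch 0x420 [(12,13),(13,14),(15,16),(16,17),(18,19),(19,20)]
(.branch 0x8020 [(9,10),(10,11),(16,17),(19,20)]
(.branch 0x100020 [(10,11),(13,14)]
(chain [0x2000020] (.branch 0x8400 [(6,7),(7,8)]
(.branch 0x100400 [(7,8)]
(.ref 0x149ca307b9ac5a928398a418820 .nil) .nil) .nil)) .nil) .nil) .nil) .nil) .nil) .nil) .nil)

def sCH4 : ℕ := 0x21

def pCH4 : List (ℕ × ℕ) := [(6,7),(7,8),(8,9),(9,10),(10,11),(11,12),(12,13),(13,14),(14,15),(15,16),(16,17),(17,18),(18,19),(19,20)]


def pH4 : SP := ⟨21, 2, 5, 34, 0x2108421, 2⟩

theorem goodH4 : pH4.Good where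
  hv := by decide
  htk := by decide
  hal := by
    intro B hB b hb c hc
    show Nat.testBit 34 (b ∩ c).card = true
    by_cases hbc : b = c
    · subst hbc; rw [inter_self, hB.1 b hb]; decide
    have h5 : ¬ 2 ≤ (b ∩ c).card := fun h => hbc (steiner_eq_of_le_inter hB hb hc h)
    have g0 := steiner_inter_ne hB (by decide) hb hc 0 (by rw [Fintype.card_fin]; decide)
    have : (b ∩ c).card = 1 := by omega
    rw [this]; decide

theorem checkBH4 : pH4.top stdH4 kH4 sBH4 [] certBH4 = true := by
  decide +kernel

theorem checkCH4 : pH4.top kH4 [] sCH4 pCH4 certCH4 = true := by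
  decide +kernel

theorem claimH4 : pH4.Claim stdH4 [] :=
  SP.top_sound goodH4 (SP.top_sound goodH4 (SP.claim_self _) checkBH4) checkCH4

theorem stdOKH4 : stdOK 21 2 5 stdH4 = true := by decide +kernel

theorem isoH4 {α : Type*} [Fintype α] [DecidableEq α] (hα : Fintype.card α = 21)
    {B : Set (Finset α)} (hB : IsSteinerSystem 2 5 B) (x : Fin 6 ↪ α)
    (hx : ∀ b ∈ B, (b ∩ univ.map x).card ≤ 2) :
    ∃ e : α ≃ Fin 21, (∀ i, e (x i) = Fin.castLE (by norm_num) i) ∧
      (fun b => b.image e) '' B = stdSet 21 stdH4 :=
  std_iso goodH4 claimH4 6 (by decide) (by decide +kernel) stdOKH4 hα hB x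
    hx

end H76
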