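import Cfsg.Agent.H76.Aut
import Cfsg.Agent.H76.P4
import Cfsg.Agent.H76.H4

/-! Hyperovals in the projective plane of order 4. -/

set_option autoImplicit false
set_option linter.unusedSectionVars false
set_option maxRecDepth 100000
set_option Elab.async false

namespace H76

open Finset Cfsg

/-- the lines -/
def p4L : List ℕ := [nat_lit 0x108421,
  nat_lit 0x10842000001,
  nat_lit 0x1084200000000001,
  nat_lit 0x108420000000000000001,
  nat_lit 0x2000020000200002000020,
  nat_lit 0x2000401000000040008000,
  nat_lit 0x2008000004000800100000,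
  nat_lit 0x2100000080010000000400,
  nat_lit 0x40000020080000040100000,
  nat_lit 0x40000400004000002000400,
  nat_lit 0x40008001000010000000020,
  nat_lit 0x40100000000200800008000,
  nat_lit 0x800000021000000800000400,
  nat_lit 0x800000400000210000100000,
  nat_lit 0x800008000080000002008000,
  nat_lit 0x800100000004000040000020,
  nat_lit 0x10000000020004010000008000,
  nat_lit 0x10000000400080000800000020,
  nat_lit 0x10000008000000200040000400,
  nat_lit 0x10000100001000000002100000,
  nat_lit 0x10842000000000000000000001]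

theorem p4L_eq : p4L = stdP4 := rfl

/-- number of members of a list passing a test -/
noncomputable def cntL (l : List ℕ) (p : ℕ → Bool) : ℕ :=
  List.rec (nat_lit 0) (fun x _ acc => Bool.rec acc (Nat.succ acc) (p x)) l

theorem cntL_eq (l : List ℕ) (p : ℕ → Bool) : cntL l p = (l.filter p).length := by
  induction l with
  | nil => rfl
  | cons x l ih =>
    show (Bool.rec (cntL l p) (Nat.succ (cntL l p)) (p x) : ℕ) = _
    rw [List.filter_cons, ih]
    cases p x <;> rfl

/-- no line meets the coded set in more than two points -/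
noncomputable def indepB (m : ℕ) : Bool :=
  allL p4L (fun l => Nat.ble (Nat.mod (Nat.land l m) (nat_lit 31)) (nat_lit 2))

theorem indepB_iff {m : ℕ} (hm : WF 5 21 m) :
    indepB m = true ↔ ∀ l ∈ stdSet 21 stdP4, (l ∩ toF 5 21 m).card ≤ 2 := by
  rw [indepB, p4L_eq, allL_iff]
  have key : ∀ l, Nat.mod (Nat.land l m) 31 = (toF 5 21 l ∩ toF 5 21 m).card := fun l => by
    rw [(hm.land_right l).mod_eq_card (by norm_num) (by norm_num), toF_land]
  constructor
  · rintro h _ ⟨l, hl, rfl⟩
    rw [← key]; exact Nat.le_of_ble_eq_true (h l hl)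
  · intro h l hl
    have := h _ ⟨l, hl, rfl⟩
    rw [← key] at this
    exact Nat.ble_eq_true_of_le this

/-- the points -/
def pts21 : List ℕ := [nat_lit 0x10000000000000000000000000, nat_lit 0x800000000000000000000000, nat_lit 0x40000000000000000000000, nat_lit 0x2000000000000000000000, nat_lit 0x100000000000000000000, nat_lit 0x8000000000000000000, nat_lit 0x400000000000000000, nat_lit 0x20000000000000000, nat_lit 0x1000000000000000, nat_lit 0x80000000000000, nat_lit 0x4000000000000, nat_lit 0x200000000000, nat_lit 0x10000000000, nat_lit 0x800000000, nat_lit 0x40000000, nat_lit 0x2000000, nat_lit 0x100000, nat_lit 0x8000, nat_lit 0x400, nat_lit 0x20, nat_lit 0x1]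

theorem pts21_eq : ptsOut 5 21 0 = pts21 := by decide +kernel

/-- check of a list of independent sets -/
noncomputable def indepList (k : ℕ) (L : List ℕ) : Bool :=
  allL L (fun m => Nat.beq (Nat.land m (full 5 21)) m && Nat.beq (Nat.mod m 31) k && indepB m) &&
    incr L.reverse 0

theorem indepList_spec {k : ℕ} {L : List ℕ} (hL : subs indepB pts21 k 0 [] = L)
    (h : indepList k L = true) :
    {S : Finset (Fin 21) | S.card = k ∧ ∀ l ∈ stdSet 21 stdP4, (l ∩ S).card ≤ 2} = stdSet 21 L ∧
      (∀ m ∈ L, WF 5 21 m) ∧ L.Nodup := by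
  rw [indepList, Bool.and_eq_true, allL_iff] at h
  simp only [Bool.and_eq_true] at h
  have hW : ∀ m ∈ L, WF 5 21 m := fun m hm => WF_of_land_full (h.1 m hm).1.1
  refine ⟨?_, hW, List.nodup_reverse.1 (incr_sound _ _ h.2).2⟩
  ext S
  constructor
  · rintro ⟨h1, h2⟩
    obtain ⟨c, h3, h4, h5⟩ := subs_complete (W := 5) (v := 21) (by norm_num) indepB
      (ptsOut 5 21 0) (fun p hp => by
        obtain ⟨i, hi, -, rfl⟩ := (mem_ptsOut 5 21 0 p).1 hp
        exact ⟨⟨i, hi⟩, rfl⟩) k 0 [] S (WF_zero 5 21) h1
      (fun i _ => (mem_ptsOut 5 21 0 _).2 ⟨i, i.2, by simp, rfl⟩)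
    rw [toF_zero, empty_union] at h4
    rw [pts21_eq] at h5
    exact ⟨c, hL ▸ h5 ((indepB_iff h3).2 (h4 ▸ h2)), h4⟩
  · rintro ⟨m, hm, rfl⟩
    refine ⟨?_, (indepB_iff (hW m hm)).1 (h.1 m hm).2⟩
    rw [← (hW m hm).mod_eq_card (M := 31) (by norm_num) (by norm_num)]
    exact Nat.eq_of_beq_eq_true (h.1 m hm).1.2

/-- the hyperovals of the standard plane -/
def hypL : List ℕ := [nat_lit 0x10800108000000010800000000,nat_lit 0x10800100400000000000008400,nat_lit 0x10800100020080200000000000,
nat_lit 0x10800008401004000000000000,nat_lit 0x10800008020000000000100020,nat_lit 0x10800000420000000042000000,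
nat_lit 0x10800000001080010040000000,nat_lit 0x10800000001000200000008020,nat_lit 0x10800000000084000000100400,
nat_lit 0x10800000000004200802000000,nat_lit 0x10800000000000010002000420,nat_lit 0x10800000000000000840108000,
nat_lit 0x10040108000084000000000000,nat_lit 0x10040100400000010040000000,nat_lit 0x10040100020000000000000420,
nat_lit 0x10040008400000000000108000,nat_lit 0x10040008020000000802000000,nat_lit 0x10040000421000200000000000,
nat_lit 0x10040000001080000000008400,nat_lit 0x10040000001004000840000000,nat_lit 0x10040000000080210002000000,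
nat_lit 0x10040000000004200000100020,nat_lit 0x10040000000000010800100400,nat_lit 0x10040000000000000042008020,
nat_lit 0x10002108000000000000008020,nat_lit 0x10002100400004200000000000,nat_lit 0x10002100020000000840000000,
nat_lit 0x10002008400000010002000000,nat_lit 0x10002008021080000000000000,nat_lit 0x10002000420000000000100400,
nat_lit 0x10002000001004000000000420,nat_lit 0x10002000001000210800000000,nat_lit 0x10002000000084000042000000,
nat_lit 0x10002000000080200000108000,nat_lit 0x10002000000000010040100020,nat_lit 0x10002000000000000802008400,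
nat_lit 0x10000100000080000040008001,nat_lit 0x10000100000004000800000401,nat_lit 0x10000100000000210000000021,
nat_lit 0x10000008001000000800008001,nat_lit 0x10000008000080010000100001,nat_lit 0x10000008000004000002000021,
nat_lit 0x10000000401000010000000401,nat_lit 0x10000000400004000040100001,nat_lit 0x10000000400000200002008001,
nat_lit 0x10000000021000000040000021,nat_lit 0x10000000020080000002000401,nat_lit 0x10000000020000200800100001,
nat_lit 0x840108000000000000100400,nat_lit 0x840100401080000000000000,nat_lit 0x840100020000010002000000,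
nat_lit 0x840008400000000840000000,nat_lit 0x840008020004200000000000,nat_lit 0x840000420000000000008020,
nat_lit 0x840000001004000000108000,nat_lit 0x840000001000200042000000,nat_lit 0x840000000084010800000000,
nat_lit 0x840000000080200000000420,nat_lit 0x840000000000010040008400,nat_lit 0x840000000000000802100020,
nat_lit 0x802108001000200000000000,nat_lit 0x802100400000000802000000,nat_lit 0x802100020000000000108000,
nat_lit 0x802008400000000000000420,nat_lit 0x802008020000010040000000,nat_lit 0x802000420084000000000000,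
nat_lit 0x802000001080000000100020,nat_lit 0x802000001004010002000000,nat_lit 0x802000000080200840000000,
nat_lit 0x802000000004200000008400,nat_lit 0x802000000000010800008020,nat_lit 0x802000000000000042100400,
nat_lit 0x800100001000010000008001,nat_lit 0x800100000080000800100001,nat_lit 0x800100000000200002000401,
nat_lit 0x800008001000000040100001,nat_lit 0x800008000004010000000401,nat_lit 0x800008000000200800000021,
nat_lit 0x800000401000000002000021,nat_lit 0x800000400080000040000401,nat_lit 0x800000400004000800008001,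
nat_lit 0x800000020080010000000021,nat_lit 0x800000020004000002100001,nat_lit 0x800000020000200040008001,
nat_lit 0x42108000000000042000000,nat_lit 0x42100400000000000100020,nat_lit 0x42100021004000000000000,
nat_lit 0x42008400080200000000000,nat_lit 0x42008020000000000008400,nat_lit 0x42000420000010800000000,
nat_lit 0x42000001080000802000000,nat_lit 0x42000001000200000100400,nat_lit 0x42000000084000000008020,
nat_lit 0x42000000004210040000000,nat_lit 0x42000000000010002108000,nat_lit 0x42000000000000840000420,
nat_lit 0x40100001000000040000401,nat_lit 0x40100000080000002000021,nat_lit 0x40100000004010000100001,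
nat_lit 0x40008000080000800000401,nat_lit 0x40008000004000040008001,nat_lit 0x40008000000200002100001,
nat_lit 0x40000401000000800100001,nat_lit 0x40000400080010000008001,nat_lit 0x40000400000200040000021,
nat_lit 0x40000021000000002008001,nat_lit 0x40000020004000800000021,nat_lit 0x40000020000210000000401,
nat_lit 0x2100001000000800000021,nat_lit 0x2100000004000002008001,nat_lit 0x2100000000200040100001,
nat_lit 0x2008001000000002000401,nat_lit 0x2008000080000040000021,nat_lit 0x2008000000210000008001,
nat_lit 0x2000400080000002100001,nat_lit 0x2000400004010000000021,nat_lit 0x2000400000200800000401,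
nat_lit 0x2000021000010000100001,nat_lit 0x2000020080000800008001,nat_lit 0x2000020004000040000401,
nat_lit 0x108001080000840000000,nat_lit 0x108001004000000008400,nat_lit 0x108000080200000100020,
nat_lit 0x108000004210002000000,nat_lit 0x108000000010040108000,nat_lit 0x108000000000802000420,
nat_lit 0x100401004010800000000,nat_lit 0x100401000200000000420,nat_lit 0x100400084000000108000,
nat_lit 0x100400080200042000000,nat_lit 0x100400000010002008020,nat_lit 0x100400000000840100400,
nat_lit 0x100021080000000008020,nat_lit 0x100021000210040000000,nat_lit 0x100020084000802000000,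
nat_lit 0x100020004200000100400,nat_lit 0x100020000010800100020,nat_lit 0x100020000000042008400,
nat_lit 0x8401080000000100400,nat_lit 0x8401000200802000000,nat_lit 0x8400084010040000000,
nat_lit 0x8400004200000008020,nat_lit 0x8400000010800008400,nat_lit 0x8400000000042100020,
nat_lit 0x8021004000042000000,nat_lit 0x8021000200000108000,nat_lit 0x8020084000000000420,
nat_lit 0x8020080210800000000,nat_lit 0x8020000010002100400,nat_lit 0x8020000000840008020,
nat_lit 0x421080010002000000,nat_lit 0x421004000000100020,nat_lit 0x420080200000008400,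
nat_lit 0x420004200840000000,nat_lit 0x420000010040000420,nat_lit 0x420000000802108000,
nat_lit 0x1080010800108000,nat_lit 0x1080000042000420,nat_lit 0x1004010040100400,
nat_lit 0x1004000802008020,nat_lit 0x1000210002008400,nat_lit 0x1000200840100020,
nat_lit 0x84010002100020,nat_lit 0x84000840008400,nat_lit 0x80210040008020,
nat_lit 0x80200802100400,nat_lit 0x4210800000420,nat_lit 0x4200042108000]

theorem hypL_eq : subs indepB pts21 6 0 [] = hypL := by decide +kernel

theorem hypL_ok : indepList 6 hypL = true := by decide +kernel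

theorem quadL_ok : indepList 4 (subs indepB pts21 4 0 []) = true := by decide +kernel

theorem quadL_length : (subs indepB pts21 4 0 []).length = 2520 := by decide +kernel

theorem quadL_uniq : allL (subs indepB pts21 4 0 []) (fun m =>
    Nat.beq (cntL hypL (fun h => Nat.beq (Nat.land m h) m)) (nat_lit 1)) = true := by
  decide +kernel

theorem std_hyperovals :
    {S : Finset (Fin 21) | S.card = 4 ∧ ∀ l ∈ stdSet 21 stdP4, (l ∩ S).card ≤ 2}.ncard = 2520 ∧
    {S : Finset (Fin 21) | S.card = 6 ∧ ∀ l ∈ stdSet 21 stdP4, (l ∩ S).card ≤ 2}.ncard = 168 ∧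
    ∀ S : Finset (Fin 21), (S.card = 4 ∧ ∀ l ∈ stdSet 21 stdP4, (l ∩ S).card ≤ 2) →
      ∃! H : Finset (Fin 21), (H.card = 6 ∧ ∀ l ∈ stdSet 21 stdP4, (l ∩ H).card ≤ 2) ∧ S ⊆ H := by
  obtain ⟨h1, h2, h3⟩ := indepList_spec rfl quadL_ok
  obtain ⟨g1, g2, g3⟩ := indepList_spec hypL_eq hypL_ok
  refine ⟨by rw [h1, ncard_stdSet h2 h3, quadL_length],
    by rw [g1, ncard_stdSet g2 g3]; decide +kernel, fun S hS => ?_⟩
  obtain ⟨m, hm, rfl⟩ := h1.le hS
  obtain ⟨h, hh⟩ := List.length_eq_one_iff.1
    ((cntL_eq _ _).symm.trans (Nat.eq_of_beq_eq_true (allL_iff.1 quadL_uniq m hm)))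
  have key : ∀ x, x ∈ hypL.filter (fun h => Nat.beq (Nat.land m h) m) ↔
      x ∈ hypL ∧ toF 5 21 m ⊆ toF 5 21 x := by
    intro x
    rw [List.mem_filter, Nat.beq_eq, ← inter_eq_left, ← toF_land]
    exact and_congr_right fun _ => ⟨fun h => by rw [h],
      fun h => ((h2 m hm).land_left x).ext (h2 m hm) h⟩
  have h4 := (key h).1 (by rw [hh]; simp)
  refine ⟨toF 5 21 h, ⟨?_, h4.2⟩, ?_⟩
  · have : toF 5 21 h ∈ stdSet 21 hypL := ⟨h, h4.1, rfl⟩
    rw [← g1] at this
    exact this
  · rintro H ⟨hH, hmH⟩
    obtain ⟨x, hx, rfl⟩ := g1.le hH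
    have := (key x).2 ⟨hx, hmH⟩
    rw [hh, List.mem_singleton] at this
    rw [this]

variable {α β : Type*} [Fintype α] [DecidableEq α] [Fintype β] [DecidableEq β]

theorem indep_image {L : Set (Finset α)} {L' : Set (Finset β)} {e : α ≃ β}
    (he : (fun b => b.image e) '' L = L') (k : ℕ) (S : Finset α) :
    ((S.image e).card = k ∧ ∀ l ∈ L', (l ∩ S.image e).card ≤ 2) ↔
      (S.card = k ∧ ∀ l ∈ L, (l ∩ S).card ≤ 2) := by
  rw [← he, card_image_of_injective _ e.injective, Set.forall_mem_image]
  simp only [← image_inter _ _ e.injective, card_image_of_injective _ e.injective]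

theorem ncard_indep {L : Set (Finset α)} {L' : Set (Finset β)} {e : α ≃ β}
    (he : (fun b => b.image e) '' L = L') (k : ℕ) :
    {S : Finset α | S.card = k ∧ ∀ l ∈ L, (l ∩ S).card ≤ 2}.ncard =
      {S : Finset β | S.card = k ∧ ∀ l ∈ L', (l ∩ S).card ≤ 2}.ncard := by
  rw [← Set.ncard_image_of_injective _ (Finset.image_injective e.injective)]
  congr 1
  ext S
  constructor
  · rintro ⟨S, hS, rfl⟩
    exact (indep_image he k S).2 hS
  · intro hS
    exact ⟨S.image e.symm, (indep_image (iso_symm he) k S).2 hS, by simp [image_image]⟩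

theorem hyperoval_secant (hα : Fintype.card α = 21) {L : Set (Finset α)}
    (hL : IsSteinerSystem 2 5 L) {H : Finset α} (hH : H.card = 6 ∧ ∀ l ∈ L, (l ∩ H).card ≤ 2)
    {l : Finset α} (hl : l ∈ L) {p : α} (hp : p ∈ H) (hpl : p ∈ l) : (l ∩ H).card = 2 := by
  have h1 := steiner_lam_le hL (by norm_num) {p} (by simp)
  rw [hα, card_singleton, show lam 2 5 21 1 = 5 by decide] at h1
  simp only [singleton_subset_iff] at h1
  have h1' : ((blocks L).filter (fun d => p ∈ d)).card = 5 := by exact_mod_cast h1
  have h2 := sum_card_inter (s := H.erase p) (B := (blocks L).filter (fun d => p ∈ d)) (n := 1) (by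
    intro q hq
    have h3 := steiner_lam_le hL (by norm_num) {p, q} card_le_two
    rw [hα, card_pair (mem_erase.1 hq).1.symm, show lam 2 5 21 2 = 1 by decide] at h3
    simp only [insert_subset_iff, singleton_subset_iff] at h3
    rw [filter_filter]
    exact_mod_cast h3)
  have h3 : ∀ d ∈ (blocks L).filter (fun d => p ∈ d), (H.erase p ∩ d).card + 1 = (d ∩ H).card := by
    intro d hd
    rw [erase_inter, inter_comm, card_erase_add_one (mem_inter.2 ⟨(mem_filter.1 hd).2, hp⟩)]
  rw [card_erase_of_mem hp, hH.1] at h2
  have h4 := (sum_eq_sum_iff_of_le (s := (blocks L).filter (fun d => p ∈ d))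
    (f := fun d => (H.erase p ∩ d).card) (g := fun _ => 1) (fun d hd => by
      have := h3 d hd
      have := hH.2 d (mem_blocks.1 (mem_filter.1 hd).1)
      omega)).1 (by rw [h2, sum_const, h1']; rfl)
  have hl' : l ∈ (blocks L).filter (fun d => p ∈ d) := mem_filter.2 ⟨mem_blocks.2 hl, hpl⟩
  have := h4 l hl'
  have := h3 l hl'
  omega

theorem hyperoval_fix (hα : Fintype.card α = 21) {L : Set (Finset α)}
    (hL : IsSteinerSystem 2 5 L) {H : Finset α} (hH : H.card = 6 ∧ ∀ l ∈ L, (l ∩ H).card ≤ 2)
    {g : Equiv.Perm α} (hg : g ∈ setSystemAut L) (hfix : ∀ p ∈ H, g p = p) : g = 1 := by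
  ext z
  show g z = z
  by_cases hz : z ∈ H
  · exact hfix z hz
  have key : ∀ u ∈ H, ∃ c ∈ L, z ∈ c ∧ u ∈ c ∧ (c ∩ H).card = 2 ∧ c.image g = c := by
    intro u hu
    obtain ⟨c, ⟨hc, hs⟩, -⟩ := hL.2 {z, u} (card_pair (fun h => hz (h ▸ hu)))
    have h1 := hyperoval_secant hα hL hH hc hu (hs (by simp))
    exact ⟨c, hc, hs (by simp), hs (by simp), h1, aut_fix_block hL hg hc inter_subset_left h1.ge
      (fun x hx => hfix x (mem_inter.1 hx).2)⟩
  obtain ⟨u, hu⟩ : H.Nonempty := card_pos.1 (by rw [hH.1]; norm_num)
  obtain ⟨c, hc, h1, -, h3, h4⟩ := key u hu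
  obtain ⟨w, hw, hwc⟩ : ∃ w ∈ H, w ∉ c ∩ H :=
    exists_mem_notMem_of_card_lt_card (by rw [h3, hH.1]; norm_num)
  obtain ⟨d, hd, g1, g2, -, g4⟩ := key w hw
  by_contra hne
  have h5 : ({g z, z} : Finset α) ⊆ c ∩ d := by
    intro x hx
    rcases mem_insert.1 hx with rfl | hx
    · exact mem_inter.2 ⟨(apply_mem_of_image_eq h4).2 h1, (apply_mem_of_image_eq g4).2 g1⟩
    · rw [mem_singleton.1 hx]; exact mem_inter.2 ⟨h1, g1⟩
  have h6 := card_le_card h5
  rw [card_pair hne] at h6
  exact hwc (mem_inter.2 ⟨steiner_eq_of_le_inter hL hc hd h6 ▸ g2, hw⟩)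

end H76
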