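/- Tower K42, slot Ref: the Sylow subgroup is abelian and invariant alternating forms vanish. -/
import Cfsg.Agent.H81.K4Spec
import Cfsg.Agent.H98.Coprime
import Cfsg.Agent.H98.Sylow
import Cfsg.Agent.H98.Basic
import Cfsg.Agent.H8.AbFitting

set_option autoImplicit false

namespace H76.K4Ref

open Cfsg Subgroup H81.K4 H98
open scoped commutatorElement

universe u

variable {G : Type u} [Group G] [Finite G]

theorem npc {p : ℕ} [Fact p.Prime] {T H : Subgroup G} (hT : IsSyl p T H)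
    (h : H ⊓ normalizer (T : Set G) ≤ centralizer (T : Set G)) : HasNormalPComplement p H := by
  obtain ⟨P, hP⟩ := hT.exists_sylow
  refine H8.hasNPC_of_normalizer_le_centralizer P ?_
  show normalizer ((P : Subgroup H) : Set H) ≤ centralizer ((P : Subgroup H) : Set H)
  rw [hP, ← subgroupOf_normalizer_eq hT.le, centralizer_subgroupOf hT.le]
  exact fun x hx => h ⟨x.2, hx⟩

theorem eq_top_of {r : ℕ} (hr : r.Prime) {A B C : Subgroup G} (h1 : A ≤ B) (h2 : B ≤ C)
    (h : Nat.card A * r = Nat.card C) {y : G} (hy : y ∈ B) (hy' : y ∉ A) : B = C := by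
  obtain ⟨a, ha⟩ := card_dvd_of_le h1
  have k := card_dvd_of_le h2
  rw [← h, ha] at k
  rcases (Nat.dvd_prime hr).1 (Nat.dvd_of_mul_dvd_mul_left Nat.card_pos k) with e | e
  · exact absurd ((eq_of_le_of_card_ge h1 (by rw [ha, e, mul_one])).ge hy) hy'
  · exact eq_of_le_of_card_ge h2 (by rw [ha, e, h])

omit [Finite G] in
theorem mem_of_pows {K : Subgroup G} {x : G} {m n : ℕ} (hc : m.Coprime n) (hm : x ^ m ∈ K)
    (hn : x ^ n ∈ K) : x ∈ K := by
  obtain ⟨a, b, e⟩ := Nat.isCoprime_iff_coprime.2 hc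
  have := mul_mem (zpow_mem hm a) (zpow_mem hn b)
  rwa [← zpow_natCast, ← zpow_natCast, ← zpow_mul, ← zpow_mul, ← zpow_add, mul_comm _ a,
    mul_comm _ b, e, zpow_one] at this

/-- The kernel of an additive function. -/
def kz {F : Type} [Field F] (P : Subgroup G) (f : G → F) (hf : ∀ x ∈ P, ∀ y ∈ P, f (x * y) = f x + f y) :
    Subgroup G where
  carrier := {x | x ∈ P ∧ f x = 0}
  one_mem' := ⟨one_mem _, by simpa using hf 1 (one_mem _) 1 (one_mem _)⟩
  mul_mem' := fun {a b} ha hb => ⟨mul_mem ha.1 hb.1, by rw [hf a ha.1 b hb.1, ha.2, hb.2, add_zero]⟩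
  inv_mem' := fun {a} ha => ⟨inv_mem ha.1, by
    have h1 : f 1 = 0 := by simpa using hf 1 (one_mem _) 1 (one_mem _)
    have := hf a ha.1 a⁻¹ (inv_mem ha.1)
    rw [mul_inv_cancel, h1, ha.2, zero_add] at this
    exact this.symm⟩

theorem jobRef : JobRef.{u} := by
  intro G _ _ p hp F _ P R hR hc hN h
  have := Fintype.ofFinite G
  have hPR : (P : Subgroup G) ≤ normalizer (R : Set G) := by
    obtain ⟨n, hn⟩ := P.isPGroup'.exists_card_eq
    have h1 := card_mul_index (R.subgroupOf P)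
    rw [Nat.card_congr (subgroupOfEquivOfLe hR).toEquiv] at h1
    have h2 : (R.subgroupOf (P : Subgroup G)).index = p :=
      Nat.eq_of_mul_eq_mul_left Nat.card_pos (h1.trans hc.symm)
    have h3 : n ≠ 0 := by
      rintro rfl
      exact hp.out.ne_one (Nat.eq_one_of_mul_eq_one_left (hc.trans (hn.trans (pow_zero p))))
    exact (normal_subgroupOf_iff_le_normalizer hR).1
      (normal_of_index_eq_minFac_card (by rw [h2, hn, hp.out.pow_minFac h3]))
  have hT := (isSyl_sylow P).inf_of_le_normalizer (N := Cn R) le_top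
    (hPR.trans (normalizer_le_normalizer_centralizer R))
  obtain ⟨s, ⟨s1, s2⟩, s3⟩ := SetLike.not_le_iff_exists.1 fun k => hN (npc hT k)
  obtain ⟨y, ⟨y1, y2⟩, y3⟩ : ∃ y ∈ (P : Subgroup G) ⊓ Cn R, y ∉ R := by
    by_contra! k
    exact s3 (centralizer_le k s1)
  replace y1 : y ∈ (P : Subgroup G) := y1
  replace y2 : y ∈ Cn R := y2
  replace s1 : s ∈ Cn R := s1
  have yZ : ∀ x ∈ (P : Subgroup G), x * y = y * x := fun x hx =>
    mem_centralizer_singleton_iff.1 ((eq_top_of hp.out (B := P ⊓ centralizer {y})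
      (le_inf hR fun r hr => mem_centralizer_singleton_iff.2 (y2 r hr)) inf_le_left hc
      ⟨y1, mem_centralizer_singleton_iff.2 rfl⟩ y3).ge hx).2
  have y0 : y ≠ 1 := fun e => y3 (e ▸ one_mem _)
  have comm : ∀ x ∈ (P : Subgroup G), ∀ z ∈ (P : Subgroup G), x * z = z * x := by
    let D : Subgroup G :=
      { carrier := {x | ∃ r ∈ R, ∃ k : ℤ, x = r * y ^ k}
        one_mem' := ⟨1, one_mem _, 0, by simp⟩
        mul_mem' := by
          rintro _ _ ⟨r, hr, k, rfl⟩ ⟨r', hr', l, rfl⟩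
          refine ⟨r * r', mul_mem hr hr', k + l, ?_⟩
          rw [zpow_add, mul_assoc, mul_assoc, ← mul_assoc (y ^ k), ← zpow_mem y2 k r' hr', mul_assoc]
        inv_mem' := by
          rintro _ ⟨r, hr, k, rfl⟩
          exact ⟨r⁻¹, inv_mem hr, -k, by
            rw [mul_inv_rev, ← zpow_neg, zpow_mem y2 (-k) _ (inv_mem hr)]⟩ }
    have hD : D = P := eq_top_of hp.out (fun r hr => ⟨r, hr, 0, by simp⟩)
      (by rintro _ ⟨r, hr, k, rfl⟩; exact mul_mem (hR hr) (zpow_mem y1 k)) hc ⟨1, one_mem _, 1, by simp⟩ y3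
    have h1 : ⁅(P : Subgroup G), (P : Subgroup G)⁆ ≤ R := commutator_le.2 fun a ha b hb => by
      obtain ⟨r, hr, k, rfl⟩ := hD.ge ha
      have h2 : Commute (y ^ k) b := (Commute.zpow_left (yZ b hb).symm k)
      have : ⁅r * y ^ k, b⁆ = r * (b * r⁻¹ * b⁻¹) := by
        rw [commutatorElement_def, mul_assoc r, h2.eq]
        group
      rw [this]
      exact mul_mem hr ((mem_normalizer_iff.1 (hPR hb) _).1 (inv_mem hr))
    have hn : normalizer (P : Set G) ≤ normalizer ((⁅(P : Subgroup G), (P : Subgroup G)⁆ : Subgroup G) : Set G) := by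
      rw [← map_subtype_commutator]
      exact normalizer_le_normalizer_map_subtype _
    by_contra hne
    have h2 : ⁅(P : Subgroup G), (P : Subgroup G)⁆ ≠ ⊥ := fun e => hne fun x hx z hz =>
      commutatorElement_eq_one_iff_mul_comm.1 (e.le (commutator_mem_commutator hx hz))
    obtain ⟨z, ⟨z1, z2⟩, z3⟩ := (bot_or_exists_ne_one _).resolve_left (inf_centralizer_ne_bot
      (P.isPGroup'.to_le (h1.trans hR)) P.isPGroup' (le_normalizer.trans hn) h2)
    obtain ⟨g, e⟩ := isConj_iff.1 (h z (hR (h1 z1)) y y1 z3 y0)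
    obtain ⟨n, n1, n2⟩ := P.conj_eq_normalizer_conj_of_mem_centralizer z g⁻¹ z2
      (by rw [inv_inv, e]; exact yZ)
    rw [inv_inv, e] at n2
    have := (mem_normalizer_iff.1 (inv_mem (hn n1)) z).1 z1
    rw [inv_inv, ← n2] at this
    exact y3 (h1 this)
  have hPC : (P : Subgroup G) ⊓ Cn R = P := inf_eq_left.2 fun x hx r hr => comm r (hR hr) x hx
  rw [hPC] at s2 s3
  have sP : ∀ x ∈ (P : Subgroup G), s * x * s⁻¹ ∈ (P : Subgroup G) := fun x hx =>
    (mem_normalizer_iff.1 s2 x).1 hx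
  have sR : ∀ r ∈ R, s * r * s⁻¹ = r := fun r hr => by rw [← s1 r hr, mul_inv_cancel_right]
  have ex : ∀ x ∈ (P : Subgroup G), x ^ p = 1 := fun x hx => H24.KS.pow_eq_one_of_conj P.isPGroup' h hx
  have w1 : s * y * s⁻¹ * y⁻¹ ∈ (P : Subgroup G) := mul_mem (sP y y1) (inv_mem y1)
  have w2 : s * y * s⁻¹ * y⁻¹ ∉ R := fun k => by
    set w := s * y * s⁻¹ * y⁻¹ with hw
    have k1 : ∀ i : ℕ, s ^ i * y = w ^ i * y * s ^ i := fun i => by
      induction i with
      | zero => simp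
      | succ i ih =>
        rw [pow_succ' s, mul_assoc, ih, pow_succ w, ← mul_assoc, ← mul_assoc, ← s1 _ (pow_mem k i), hw]
        have : s * s ^ i = s ^ i * s := by group
        group
    have k2 := k1 p
    rw [ex w w1, one_mul] at k2
    have k3 : s ^ p ∈ centralizer ((P : Subgroup G) : Set G) := fun x hx =>
      mem_centralizer_singleton_iff.1 ((eq_top_of hp.out (B := P ⊓ centralizer {s ^ p})
        (le_inf hR fun r hr => mem_centralizer_singleton_iff.2 (pow_mem s1 p r hr)) inf_le_left hc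
        ⟨y1, mem_centralizer_singleton_iff.2 k2.symm⟩ y3).ge hx).2
    obtain ⟨j, m, hm, e⟩ := Nat.exists_eq_pow_mul_and_not_dvd (orderOf_pos s).ne' p hp.out.ne_one
    have k4 : s ^ m ∈ (P : Subgroup G) := by
      refine zpowers_le.1 ((isSyl_sylow P).le_of_le_normalizer' ?_ le_top (zpowers_le.2 (pow_mem s2 m)))
      refine IsPGroup.of_card_dvd_pow (n := j) ?_
      rw [Nat.card_zpowers]
      exact orderOf_dvd_of_pow_eq_one (by rw [← pow_mul, mul_comm, ← e, pow_orderOf_eq_one])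
    exact s3 (mem_of_pows ((Nat.Prime.coprime_iff_not_dvd hp.out).2 hm) k3 fun x hx => comm x hx _ k4)
  refine ⟨comm, ex, P.not_dvd_index, fun K hK hK' => ?_, ⟨s, sP, ?_⟩, fun ω a1 a2 a3 a4 x hx z hz => ?_⟩
  · refine or_iff_not_imp_left.2 fun h0 => le_antisymm hK fun x hx => ?_
    obtain ⟨u, hu, u1⟩ := K.bot_or_exists_ne_one.resolve_left h0
    by_cases x1 : x = 1
    · rw [x1]; exact one_mem _
    obtain ⟨g, hg, rfl⟩ := H24.KS.trans_of_comm P comm (hK hu) hx (h u (hK hu) x hx u1 x1)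
    exact hK' g hg u hu
  · by_contra! k
    exact s3 fun x hx => (mul_inv_eq_iff_eq_mul.1 (k x hx)).symm
  · have b1 : ∀ r ∈ R, ω r (s * y * s⁻¹ * y⁻¹) = 0 := fun r hr => by
      have e1 := a1 _ w1 y y1 r (hR hr)
      have e2 := a4 s sP y y1 r (hR hr)
      rw [sR r hr] at e2
      rw [inv_mul_cancel_right, e2, right_eq_add] at e1
      rw [a3 _ w1 r (hR hr), e1, neg_zero]
    have b2 := eq_top_of hp.out (B := kz P (fun x => ω x (s * y * s⁻¹ * y⁻¹)) fun a ha b hb => a1 a ha b hb _ w1)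
      (fun r hr => ⟨hR hr, b1 r hr⟩) (fun _ k => k.1) hc ⟨w1, a2 _ w1⟩ w2
    by_cases x1 : x = 1
    · rw [x1]
      simpa using a1 1 (one_mem _) 1 (one_mem _) z hz
    obtain ⟨g, hg, e⟩ := H24.KS.trans_of_comm P comm hx w1 (h x hx _ w1 x1 fun k => w2 (k ▸ one_mem _))
    rw [← a4 g hg x hx z hz, e, a3 _ (hg z hz) _ w1, neg_eq_zero]
    exact (b2.ge (hg z hz)).2

end H76.K4Ref
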