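import Cfsg.Agent.H63.KgvSpec
import Cfsg.Agent.H3.NormalRankOne

/-! Nilpotent groups with cyclic centre (`H63.Kgv.SgSt`). -/

set_option autoImplicit false

namespace H76.KgvSg

open Subgroup

universe u

variable {E : Type u} [Group E] [Finite E] [Group.IsNilpotent E]

theorem left_of (hZ : IsCyclic (center E)) {r : ℕ} (hr : r.Prime) (N : Subgroup E) [hN : N.Normal]
    (he : ∀ x ∈ N, x ^ r = 1) (hn : ¬ N ≤ center E) :
    ∃ (r : ℕ) (z a : E), r.Prime ∧ orderOf z = r ∧ z ∈ center E ∧ a ^ r = 1 ∧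
      a ∉ center E ∧ ∀ y : E, y * a * y⁻¹ * a⁻¹ ∈ zpowers z := by
  classical
  have := Fact.mk hr
  obtain ⟨n, hn'⟩ := Group.IsNilpotent.nilpotent' (G := E)
  have ex : ∃ n, ∃ a ∈ N, a ∉ center E ∧ a ∈ Subgroup.upperCentralSeries E n := by
    obtain ⟨a, h1, h2⟩ := SetLike.not_le_iff_exists.1 hn
    exact ⟨n, a, h1, h2, hn' ▸ mem_top a⟩
  obtain ⟨a, aN, aZ, an⟩ := Nat.find_spec ex
  have cN : ∀ y : E, y * a * y⁻¹ * a⁻¹ ∈ N := fun y => mul_mem (hN.conj_mem a aN y) (inv_mem aN)
  have cZ : ∀ y : E, y * a * y⁻¹ * a⁻¹ ∈ center E := fun y => by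
    by_contra h
    rcases e : Nat.find ex with _ | m
    · rw [e, Subgroup.upperCentralSeries_zero, mem_bot] at an
      exact aZ (an ▸ one_mem _)
    · rw [e] at an
      refine Nat.find_min ex (m := m) (by omega) ⟨_, cN y, h, ?_⟩
      have := inv_mem (Subgroup.mem_upperCentralSeries_succ_iff.1 an y)
      rwa [commutatorElement_inv, commutatorElement_def] at this
  obtain ⟨y, hy⟩ : ∃ y : E, y * a * y⁻¹ * a⁻¹ ≠ 1 := by
    by_contra! h
    exact aZ (mem_center_iff.2 fun y => by
      have := h y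
      rwa [mul_inv_eq_one, mul_inv_eq_iff_eq_mul] at this)
  have o := orderOf_eq_prime (he _ (cN y)) hy
  exact ⟨r, _, a, hr, o, cZ y, he a aN, aZ, fun w =>
    H3.mem_zpowers_of_isCyclic_subgroup hZ (cZ w) (cZ y) (he _ (cN w)) o⟩

theorem syl_le {r s : ℕ} [Fact r.Prime] [Fact s.Prime] (h : r ≠ s) (P : Sylow r E) (Q : Sylow s E) :
    (Q : Subgroup E) ≤ centralizer (P : Set E) := fun _ hy x hx =>
  (commute_of_normal_of_disjoint (P : Subgroup E) Q inferInstance inferInstance
    (IsPGroup.disjoint_of_ne r s h _ _ P.isPGroup' Q.isPGroup') x _ hx hy).eq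

theorem sup_top {r : ℕ} [Fact r.Prime] (P : Sylow r E) :
    (P : Subgroup E) ⊔ centralizer (P : Set E) = ⊤ := by
  rw [← index_eq_one]
  by_contra h
  obtain ⟨s, hs, hd⟩ := Nat.exists_prime_and_dvd h
  have := Fact.mk hs
  by_cases e : r = s
  · subst e
    exact P.not_dvd_index (hd.trans (index_dvd_of_le le_sup_left))
  · let Q : Sylow s E := default
    exact Q.not_dvd_index (hd.trans (index_dvd_of_le ((syl_le e P Q).trans le_sup_right)))

theorem cyc (hZ : IsCyclic (center E)) {r : ℕ} [hr : Fact r.Prime] (P : Sylow r E)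
    (h : ∀ N : Subgroup E, N.Normal → (∀ x ∈ N, x ^ r = 1) → N ≤ center E)
    (A : Subgroup P) (hA : A.Normal) (hc : IsMulCommutative A) : IsCyclic A := by
  have cm : ∀ a ∈ A, ∀ b ∈ A, a * b = b * a := fun a ha b hb =>
    congrArg Subtype.val (hc.is_comm.comm ⟨a, ha⟩ ⟨b, hb⟩)
  let N : Subgroup E :=
    { carrier := {x | x ^ r = 1 ∧ ∃ a ∈ A, (a : E) = x}
      one_mem' := ⟨one_pow r, 1, one_mem _, rfl⟩
      mul_mem' := by
        rintro _ _ ⟨h1, a, ha, rfl⟩ ⟨h2, b, hb, rfl⟩
        refine ⟨?_, a * b, mul_mem ha hb, rfl⟩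
        rw [Commute.mul_pow (congrArg Subtype.val (cm a ha b hb)), h1, h2, one_mul]
      inv_mem' := by
        rintro _ ⟨h1, a, ha, rfl⟩
        exact ⟨by rw [inv_pow, h1, inv_one], a⁻¹, inv_mem ha, rfl⟩ }
  have hN : N.Normal := ⟨by
    rintro _ ⟨h1, a, ha, rfl⟩ g
    refine ⟨by rw [conj_pow, h1, mul_one, mul_inv_cancel], ?_⟩
    obtain ⟨u, hu, c, hc', rfl⟩ := mem_sup_of_normal_left.1 ((sup_top P).ge (mem_top g))
    refine ⟨⟨u, hu⟩ * a * ⟨u, hu⟩⁻¹, hA.conj_mem a ha _, ?_⟩
    have := hc' a a.2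
    change u * a * u⁻¹ = _
    rw [mul_assoc u c, ← this]
    group⟩
  have hle := h N hN fun x hx => hx.1
  refine H3.isCyclic_of_comm_pgroup_of_unique (P.isPGroup'.to_subgroup A) hc ?_
  have key : ∀ H K : Subgroup A, Nat.card H = r → Nat.card K = r → H ≤ K := fun H K hH hK x hx => by
    obtain ⟨k, hk⟩ := exists_prime_orderOf_dvd_card' (G := K) r hK.symm.dvd
    have p1 : x ^ r = 1 := by
      have := pow_card_eq_one' (x := (⟨x, hx⟩ : H))
      rw [hH] at this
      exact congrArg Subtype.val this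
    have p1' : ((x : P) : E) ^ r = 1 := congrArg (fun t : A => ((t : P) : E)) p1
    have o : orderOf (((k : A) : P) : E) = r := by simpa using hk
    obtain ⟨j, hj⟩ := mem_zpowers_iff.1 (H3.mem_zpowers_of_isCyclic_subgroup hZ
      (hle ⟨p1', x, x.2, rfl⟩) (hle ⟨orderOf_dvd_iff_pow_eq_one.1 o.dvd, k, (k : A).2, rfl⟩) p1' o)
    have : x = (k : A) ^ j := Subtype.ext (Subtype.ext (by simpa using hj.symm))
    exact this ▸ zpow_mem k.2 j
  exact fun H K hH hK => le_antisymm (key H K hH hK) (key K H hK hH)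

theorem job : H63.Kgv.SgSt.{u} := by
  intro E _ _ hE hZ hna
  refine or_iff_not_imp_left.2 fun hl => ?_
  have h : ∀ r : ℕ, r.Prime → ∀ N : Subgroup E, N.Normal → (∀ x ∈ N, x ^ r = 1) → N ≤ center E :=
    fun r hr N hN he => by_contra fun hn => hl (left_of hZ hr N he hn)
  have odd : ∀ r : ℕ, r.Prime → r ≠ 2 → ∀ P : Sylow r E, IsCyclic P := fun r hr h2 P => by
    have := Fact.mk hr
    exact H3.isCyclic_of_normal_abelian_cyclic_odd h2 P.isPGroup' (cyc hZ P (h r hr))
  let T : Sylow 2 E := default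
  have nT : ¬ IsCyclic T := fun hT => by
    have : IsZGroup E := ⟨fun r hr P => by
      by_cases e : r = 2
      · subst e
        have := Sylow.unique_of_normal T inferInstance
        rwa [Subsingleton.elim P T]
      · exact odd r hr e P⟩
    exact hna (IsCyclic.commGroup (α := E)).mul_comm
  obtain ⟨a, hi, hs⟩ := H3.exists_zpowers_index_two_of_normal_abelian_cyclic T.isPGroup'
    (cyc hZ T (h 2 Nat.prime_two)) nT
  let H := centralizer ({(a : E)} : Set E)
  have e1 : H.subgroupOf T = zpowers a := by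
    ext x
    rw [mem_subgroupOf, mem_centralizer_singleton_iff]
    refine ⟨fun hx => hs x (Subtype.ext hx), fun hx => ?_⟩
    obtain ⟨j, rfl⟩ := mem_zpowers_iff.1 hx
    exact congrArg Subtype.val ((Commute.refl a).zpow_left j).eq
  refine ⟨H, ?_, ?_⟩
  · have : IsZGroup H := ⟨fun r hr Q => by
      have := Fact.mk hr
      obtain ⟨P, hP⟩ := (Q.isPGroup'.map H.subtype).exists_le_sylow
      refine (MulEquiv.isCyclic (equivMapOfInjective (Q : Subgroup H) H.subtype H.subtype_injective)).2 ?_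
      by_cases e : r = 2
      · subst e
        have := Sylow.unique_of_normal T inferInstance
        rw [Subsingleton.elim P T] at hP
        refine isCyclic_of_le (H' := zpowers (a : E)) fun x hx => ?_
        obtain ⟨j, hj⟩ := mem_zpowers_iff.1 (e1.le (show (⟨x, hP hx⟩ : T) ∈ H.subgroupOf T from
          mem_subgroupOf.2 (map_subtype_le (Q : Subgroup H) hx)))
        exact mem_zpowers_iff.2 ⟨j, congrArg Subtype.val hj⟩
      · have := odd r hr e P
        exact isCyclic_of_le hP⟩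
    infer_instance
  · have e2 : H ⊔ T = ⊤ := top_le_iff.1 ((sup_top T).ge.trans (sup_le le_sup_right
      ((centralizer_le (Set.singleton_subset_iff.2 a.2)).trans le_sup_left)))
    have e3 := relIndex_mul_index (inf_le_right : H ⊓ T ≤ T)
    have e4 := relIndex_mul_index (inf_le_right : (T : Subgroup E) ⊓ H ≤ H)
    rw [inf_relIndex_right, show H.relIndex T = 2 by rw [relIndex, e1, hi], inf_comm, ← e4,
      inf_relIndex_right, ← relIndex_sup_right H, e2, relIndex_top_right, mul_comm] at e3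
    exact (Nat.eq_of_mul_eq_mul_left (Nat.pos_of_ne_zero index_ne_zero_of_finite) e3).symm

end H76.KgvSg
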